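import Cfsg.Agent.H430.CfChevTab
import Cfsg.Agent.H934.HeisF4Even

/-!
# `F₄(q)`, `q` even: a subgroup with a long root element and the root step is everything (helper318, S5719)

* `all_long` : if a long root element `x_r(c)` of (a conjugate of) `A` with `r` at angle 60 degrees from the highest root
  gives the whole highest root subgroup, then `A` contains all long root subgroups;
* `top_of_long` : the short root subgroups.
-/

set_option autoImplicit false
set_option linter.unusedSectionVars false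

namespace Cfsg.Agent.H318.IF

open Cfsg Cfsg.Lie Cfsg.Agent.ChevalleyStructure Cfsg.Agent.ChevalleyStructure.Elts
  Cfsg.Agent.ChevalleyStructure.NConj Cfsg.Agent.H934.HeisChev Cfsg.Agent.H934.HeisF4Even Cfsg.Agent.H934.HeisF4G2
  Cfsg.Agent.H430.CfChev

/-- the long roots at 60 degrees -/
def nb (r : ℕ) : List ℕ :=
  ([[1, 2, 4, 5, 15, 16, 21, 23], [0, 2, 4, 6, 15, 17, 22, 24], [0, 1, 5, 6, 16, 17, 25, 26], [],
    [0, 1, 5, 6, 21, 22, 30, 31], [0, 2, 4, 6, 23, 25, 30, 32], [1, 2, 4, 5, 24, 26, 31, 32], [], [], [], [], [], [], [],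
    [], [0, 1, 16, 17, 21, 22, 41, 42], [0, 2, 15, 17, 23, 25, 41, 43], [1, 2, 15, 16, 24, 26, 42, 43], [], [], [],
    [0, 4, 15, 22, 23, 30, 41, 45], [1, 4, 15, 21, 24, 31, 42, 45], [0, 5, 16, 21, 25, 30, 41, 46],
    [1, 6, 17, 22, 26, 31, 42, 47], [2, 5, 16, 23, 26, 32, 43, 46], [2, 6, 17, 24, 25, 32, 43, 47], [], [], [],
    [4, 5, 21, 23, 31, 32, 45, 46], [4, 6, 22, 24, 30, 32, 45, 47], [5, 6, 25, 26, 30, 31, 46, 47], [], [], [], [], [],
    [], [], [], [15, 16, 21, 23, 42, 43, 45, 46], [15, 17, 22, 24, 41, 43, 45, 47], [16, 17, 25, 26, 41, 42, 46, 47], [],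
    [21, 22, 30, 31, 41, 42, 46, 47], [23, 25, 30, 32, 41, 43, 45, 47], [24, 26, 31, 32, 42, 43, 45, 46]] :
    List (List ℕ)).getD r []

theorem nb_top : ∀ r ∈ nb 47, ∃ i : Fin 8, tabL.S i = r := by decide

theorem nb_reflect : ∀ s ∈ OF4, ∀ i < chevF4.rank, ∀ r ∈ nb s, chevF4.reflectRoot i r ∈ nb (chevF4.reflectRoot i s) := by
  decide +kernel

theorem nb_lt : ∀ s ∈ OF4, ∀ r ∈ nb s, r < chevF4.nroots := by decide +kernel

theorem nb_conn : ∀ r ∈ OF4, ∃ s ∈ nb 47, s ∈ OF4 ∧ 47 ∈ nb s ∧ ∃ t ∈ OF4, s ∈ nb t ∧ t ∈ nb r := by decide +kernel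

section

variable {F : Type} [Field F]

/-- the fundamental elements of the monomial subgroup -/
noncomputable def ng (F : Type) [Field F] (i : ℕ) : ↥(chevF4.group F) := ⟨nS hF4 F i, nG_mem_group hF4 _ _⟩

variable [CharP F 2]

theorem conj_ng {i r : ℕ} (hi : i < chevF4.rank) (hr : r < chevF4.nroots) (t : F) :
    ng F i * xe hF4 r t * (ng F i)⁻¹ = xe hF4 (chevF4.reflectRoot i r) t := by
  obtain ⟨η, hη, h1, -⟩ := conj_x (F := F) hF4 hi hr
  have h2 : η = 1 := by
    rcases hη with h | h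
    · exact h
    · rw [h, CharTwo.neg_eq]
  apply Subtype.ext
  have h3 := h1 t
  rw [h2, one_mul] at h3
  exact h3

theorem mem_map_ng {i r : ℕ} (hi : i < chevF4.rank) (hr : r < chevF4.nroots) (t : F) (A : Subgroup ↥(chevF4.group F)) :
    xe hF4 r t ∈ A.map (MulAut.conj (ng F i)).toMonoidHom ↔ xe hF4 (chevF4.reflectRoot i r) t ∈ A := by
  have hr' : chevF4.reflectRoot i r < chevF4.nroots := Reach.reflect_lt hF4 hi hr
  have h1 := conj_ng (F := F) hi hr' t
  rw [Reach.reflect_reflect hF4 hi hr] at h1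
  rw [Subgroup.mem_map_equiv]
  have h2 : (MulAut.conj (ng F i)).symm (xe hF4 r t) = xe hF4 (chevF4.reflectRoot i r) t := by
    rw [MulAut.conj_symm_apply, ← h1]
    group
  rw [h2]

theorem map_map_conj {G : Type*} [Group G] (A : Subgroup G) (g h : G) :
    (A.map (MulAut.conj h).toMonoidHom).map (MulAut.conj g).toMonoidHom = A.map (MulAut.conj (g * h)).toMonoidHom := by
  rw [Subgroup.map_map]
  congr 1
  ext x
  show g * (h * x * h⁻¹) * g⁻¹ = g * h * x * (g * h)⁻¹
  group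

/-- the root step -/
def HS (A : Subgroup ↥(chevF4.group F)) : Prop :=
  ∀ g : ↥(chevF4.group F), ∀ i : Fin 8, ∀ c : F, c ≠ 0 →
    xe hF4 (tabL.S i) c ∈ A.map (MulAut.conj g).toMonoidHom →
    ∀ a : F, xe hF4 47 a ∈ A.map (MulAut.conj g).toMonoidHom

theorem HS.map {A : Subgroup ↥(chevF4.group F)} (h : HS A) (g : ↥(chevF4.group F)) :
    HS (A.map (MulAut.conj g).toMonoidHom) := by
  intro g' i c hc
  rw [map_map_conj]
  exact h _ i c hc

theorem HS.key {A : Subgroup ↥(chevF4.group F)} (h : HS A) {s : ℕ} (hs : s ∈ OF4) {r : ℕ} (hr : r ∈ nb s) {c : F}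
    (hc : c ≠ 0) (hx : xe hF4 r c ∈ A) (a : F) : xe hF4 s a ∈ A := by
  have hD := distOk chkdF4
  obtain ⟨n, hn⟩ : ∃ n, n = dlF4.getD s 0 := ⟨_, rfl⟩
  induction n generalizing s A r with
  | zero =>
    rcases hD.step s hs with h1 | ⟨i, hi, h1, h2⟩
    · have h1' : s = 47 := h1
      subst h1'
      obtain ⟨j, rfl⟩ := nb_top r hr
      have h3 := h 1 j c hc
      have h4 : A.map (MulAut.conj (1 : ↥(chevF4.group F))).toMonoidHom = A := by
        rw [map_one]
        exact Subgroup.map_id A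
      rw [h4] at h3
      exact h3 hx a
    · omega
  | succ n ih =>
    rcases hD.step s hs with h1 | ⟨i, hi, h1, h2⟩
    · have h1' : s = 47 := h1
      subst h1'
      obtain ⟨j, rfl⟩ := nb_top r hr
      have h3 := h 1 j c hc
      have h4 : A.map (MulAut.conj (1 : ↥(chevF4.group F))).toMonoidHom = A := by
        rw [map_one]
        exact Subgroup.map_id A
      rw [h4] at h3
      exact h3 hx a
    · have hrl := nb_lt s hs r hr
      have hsl := hD.lt s hs
      have hrl' : chevF4.reflectRoot i r < chevF4.nroots := Reach.reflect_lt hF4 hi hrl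
      have hsl' : chevF4.reflectRoot i s < chevF4.nroots := Reach.reflect_lt hF4 hi hsl
      have h3 := ih (h.map (ng F i)) h1 (nb_reflect s hs i hi r hr)
        ((mem_map_ng hi hrl' c A).2 (by rw [Reach.reflect_reflect hF4 hi hrl]; exact hx)) (by omega)
      have h4 := (mem_map_ng hi hsl' a A).1 h3
      rwa [Reach.reflect_reflect hF4 hi hsl] at h4

end

/-- **The long root subgroups.** -/
theorem all_long {F : Type} [Field F] [Fintype F] [CharP F 2] (A : Subgroup ↥(chevF4.group F))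
    (hstep : ∀ g : ↥(chevF4.group F), ∀ i : Fin 8, ∀ c : F, c ≠ 0 →
      xe hF4 (tabL.S i) c ∈ A.map (MulAut.conj g).toMonoidHom →
      ∀ a : F, xe hF4 47 a ∈ A.map (MulAut.conj g).toMonoidHom)
    {c0 : F} (hc0 : c0 ≠ 0) (h0 : xe hF4 47 c0 ∈ A) : ∀ r ∈ OF4, ∀ a : F, xe hF4 r a ∈ A := by
  have h : HS A := hstep
  intro r hr a
  obtain ⟨s, -, hs, hs47, t, ht, hst, htr⟩ := nb_conn r hr
  have h1 := h.key hs hs47 hc0 h0 1
  have h2 := h.key ht hst one_ne_zero h1 1
  exact h.key hr htr one_ne_zero h2 a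


/-! ### The short root subgroups -/

/-- the short roots that are not orthogonal to both long fundamental roots -/
def sh1 : List ℕ := [8, 9, 10, 11, 12, 13, 18, 19, 20, 27, 28, 29, 34, 35, 36, 37, 38, 39]

theorem sh1_tab : ∀ r ∈ sh1, r < chevF4.nroots ∧
    (∃ s ∈ OF4, s < chevF4.nroots ∧ s ≠ r ∧ s ≠ chevF4.neg r ∧ ct2 chevF4 r s = []) ∧
    ∃ i < chevF4.rank, chevF4.simple i ∈ OF4 ∧ chevF4.neg (chevF4.simple i) ∈ OF4 ∧
      (chevF4.cartan i r = 1 ∨ chevF4.cartan i r = -1) := by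
  decide +kernel

theorem short_tab : ∀ r < chevF4.nroots, r ∈ OF4 ∨ r ∈ sh1 ∨
    (∃ i < chevF4.rank, chevF4.reflectRoot i r ∈ sh1) ∨
    ∃ i < chevF4.rank, ∃ j < chevF4.rank, chevF4.reflectRoot j (chevF4.reflectRoot i r) ∈ sh1 := by
  decide +kernel

theorem OF4_closed : ∀ r ∈ OF4, ∀ i < chevF4.rank, chevF4.reflectRoot i r ∈ OF4 := by decide +kernel

theorem OF4_lt : ∀ r ∈ OF4, r < chevF4.nroots := by decide +kernel

section

variable {F : Type} [Field F] [Fintype F]

/-- the hypotheses -/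
structure HT4 (A : Subgroup ↥(chevF4.group F)) : Prop where
  long : ∀ r ∈ OF4, ∀ a : F, xe hF4 r a ∈ A
  fix : ∀ s ∈ OF4, ∀ B : Subgroup ↥(chevF4.group F),
    B ≤ Subgroup.centralizer ({xe hF4 s 1} : Set ↥(chevF4.group F)) →
    Nat.card B < Fintype.card F * Nat.card (A ⊓ B : Subgroup ↥(chevF4.group F))

/-- a root subgroup -/
noncomputable def xr (F : Type) [Field F] (r : ℕ) : Multiplicative F →* ↥(chevF4.group F) where
  toFun := fun v => xe hF4 r (Multiplicative.toAdd v)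
  map_one' := xe_zero hF4 r
  map_mul' := fun _ _ => xe_add hF4 r _ _

theorem card_xr {r : ℕ} (hr : r < chevF4.nroots) : Nat.card (xr F r).range = Fintype.card F := by
  have hinj : Function.Injective (xr F r) := by
    rw [injective_iff_map_eq_one]
    intro v hv
    exact Multiplicative.toAdd.injective (xe_eq_one hF4 hr (t := Multiplicative.toAdd v) hv)
  rw [← Nat.card_congr (MonoidHom.ofInjective hinj).toEquiv]
  exact (Nat.card_congr (Multiplicative.toAdd (α := F))).trans Nat.card_eq_fintype_card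

variable [CharP F 2]

theorem HT4.map {A : Subgroup ↥(chevF4.group F)} (h : HT4 A) {i : ℕ} (hi : i < chevF4.rank) :
    HT4 (A.map (MulAut.conj (ng F i)).toMonoidHom) := by
  have hfin : Finite (GL chevF4.Idx F) := inferInstance
  have hfinG : Finite ↥(chevF4.group F) := inferInstance
  refine ⟨fun r hr a => (mem_map_ng hi (OF4_lt r hr) a A).2 (h.long _ (OF4_closed r hr i hi) a), ?_⟩
  intro s hs B hB
  set φ : ↥(chevF4.group F) →* ↥(chevF4.group F) := (MulAut.conj (ng F i)).toMonoidHom with hφ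
  have hφi : Function.Injective φ := (MulAut.conj (ng F i)).injective
  have hφs : Function.Surjective φ := (MulAut.conj (ng F i)).surjective
  have h1 : B.comap φ ≤ Subgroup.centralizer ({xe hF4 (chevF4.reflectRoot i s) 1} : Set ↥(chevF4.group F)) := by
    intro b hb
    rw [Subgroup.mem_centralizer_singleton_iff]
    apply hφi
    have h2 := Subgroup.mem_centralizer_singleton_iff.1 (hB hb)
    have h3 : φ (xe hF4 (chevF4.reflectRoot i s) (1 : F)) = xe hF4 s 1 := by
      have h4 := conj_ng (F := F) hi (Reach.reflect_lt hF4 hi (OF4_lt s hs)) 1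
      rw [Reach.reflect_reflect hF4 hi (OF4_lt s hs)] at h4
      exact h4
    rw [map_mul, map_mul, h3]
    exact h2
  have h2 := h.fix _ (OF4_closed s hs i hi) _ h1
  have h3 : Nat.card (B.comap φ) = Nat.card B := by
    have h4 : (B.comap φ).map φ = B := Subgroup.map_comap_eq_self_of_surjective hφs B
    rw [← h4, h4]
    nth_rewrite 2 [← h4]
    exact Nat.card_congr ((B.comap φ).equivMapOfInjective φ hφi).toEquiv
  have h4 : Nat.card (A ⊓ B.comap φ : Subgroup ↥(chevF4.group F)) =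
      Nat.card (A.map φ ⊓ B : Subgroup ↥(chevF4.group F)) := by
    have h5 : (A ⊓ B.comap φ).map φ = A.map φ ⊓ B := by
      ext x
      constructor
      · rintro ⟨a, ⟨ha, hb⟩, rfl⟩
        exact ⟨⟨a, ha, rfl⟩, hb⟩
      · rintro ⟨⟨a, ha, rfl⟩, hb⟩
        exact ⟨a, ⟨ha, hb⟩, rfl⟩
    rw [← h5]
    exact Nat.card_congr ((A ⊓ B.comap φ).equivMapOfInjective φ hφi).toEquiv
  rw [h3, h4] at h2
  exact h2

theorem hG_mem {A : Subgroup ↥(chevF4.group F)} (h : HT4 A) {i : ℕ} (h1 : chevF4.simple i ∈ OF4)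
    (h2 : chevF4.neg (chevF4.simple i) ∈ OF4) (c : F) :
    (⟨hG hF4 (chevF4.simple i) c, hG_mem_group hF4 _ _⟩ : ↥(chevF4.group F)) ∈ A := by
  have h3 : hG hF4 (chevF4.simple i) c ∈ A.map (chevF4.group F).subtype := by
    refine mem_of_xG_mem hF4 fun p hp => ?_
    have h4 : p.1 = chevF4.simple i ∨ p.1 = chevF4.neg (chevF4.simple i) := by
      simp only [ChevalleyDatum.hWord, ChevalleyDatum.nWord, List.cons_append, List.nil_append, List.mem_cons,
        List.not_mem_nil, or_false] at hp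
      rcases hp with rfl | rfl | rfl | rfl | rfl | rfl <;> simp
    have h5 : p.1 ∈ OF4 := by
      rcases h4 with h4 | h4 <;> rw [h4]
      · exact h1
      · exact h2
    exact ⟨_, h.long _ h5 p.2, rfl⟩
  obtain ⟨a, ha, hae⟩ := h3
  have h4 : a = (⟨hG hF4 (chevF4.simple i) c, hG_mem_group hF4 _ _⟩ : ↥(chevF4.group F)) := Subtype.ext hae
  rwa [← h4]

theorem HT4.key {A : Subgroup ↥(chevF4.group F)} (h : HT4 A) {r : ℕ} (hr : r ∈ sh1) (a : F) : xe hF4 r a ∈ A := by
  have hfin : Finite (GL chevF4.Idx F) := inferInstance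
  have hfinG : Finite ↥(chevF4.group F) := inferInstance
  obtain ⟨hrl, ⟨s, hs, hsl, h1, h2, h3⟩, i, hi, h4, h5, h6⟩ := sh1_tab r hr
  have hB : (xr F r).range ≤ Subgroup.centralizer ({xe hF4 s 1} : Set ↥(chevF4.group F)) := by
    rintro _ ⟨v, rfl⟩
    rw [Subgroup.mem_centralizer_singleton_iff]
    exact (comm2_nil hF4 hrl hsl h1 h2 h3 (Multiplicative.toAdd v) 1).symm
  have h7 := h.fix s hs _ hB
  rw [card_xr hrl] at h7
  have h8 : 1 < Nat.card (A ⊓ (xr F r).range : Subgroup ↥(chevF4.group F)) := by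
    by_contra hcon
    have h9 : Fintype.card F * Nat.card (A ⊓ (xr F r).range : Subgroup ↥(chevF4.group F)) ≤ Fintype.card F * 1 :=
      Nat.mul_le_mul_left _ (by omega)
    omega
  obtain ⟨y, ⟨hyA, v, hv⟩, hy1⟩ := (Subgroup.nontrivial_iff_exists_ne_one _).1 (Finite.one_lt_card_iff_nontrivial.1 h8)
  obtain ⟨t, ht⟩ : ∃ t : F, xe hF4 r t = y := ⟨Multiplicative.toAdd v, hv⟩
  have ht0 : t ≠ 0 := by
    rintro rfl
    rw [xe_zero] at ht
    exact hy1 ht.symm
  -- the torus
  have h9 : ∀ c : F, c ≠ 0 → xe hF4 r (c ^ (chevF4.cartan i r) * t) ∈ A := by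
    intro c hc
    have h10 := Cfsg.Agent.S1032.result (F := F) chevF4 hF4 i r hi hrl c hc t
    have h11 : (⟨hG hF4 (chevF4.simple i) c, hG_mem_group hF4 _ _⟩ : ↥(chevF4.group F)) * xe hF4 r t =
        xe hF4 r (c ^ (chevF4.cartan i r) * t) *
          (⟨hG hF4 (chevF4.simple i) c, hG_mem_group hF4 _ _⟩ : ↥(chevF4.group F)) := by
      apply Subtype.ext
      apply Units.ext
      show (hG hF4 (chevF4.simple i) c * xG hF4 r t : GL chevF4.Idx F).val =
        (xG hF4 r (c ^ (chevF4.cartan i r) * t) * hG hF4 (chevF4.simple i) c : GL chevF4.Idx F).val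
      rw [Units.val_mul, Units.val_mul, coe_hG]
      exact h10
    rw [← mul_inv_eq_iff_eq_mul] at h11
    rw [← h11]
    have h12 := hG_mem h h4 h5 c
    exact mul_mem (mul_mem h12 (by rw [ht]; exact hyA)) (inv_mem h12)
  by_cases ha : a = 0
  · rw [ha, xe_zero]
    exact one_mem A
  rcases h6 with h6 | h6
  · have h13 := h9 (a / t) (div_ne_zero ha ht0)
    rwa [h6, zpow_one, div_mul_cancel₀ _ ht0] at h13
  · have h13 := h9 (t / a) (div_ne_zero ht0 ha)
    rwa [h6, zpow_neg_one, inv_div, div_mul_cancel₀ _ ht0] at h13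

theorem HT4.step {A : Subgroup ↥(chevF4.group F)} {i : ℕ} (hi : i < chevF4.rank) {r : ℕ} (hr : r < chevF4.nroots) {a : F}
    (h : xe hF4 (chevF4.reflectRoot i r) a ∈ A.map (MulAut.conj (ng F i)).toMonoidHom) : xe hF4 r a ∈ A := by
  have h1 := (mem_map_ng hi (Reach.reflect_lt hF4 hi hr) a A).1 h
  rwa [Reach.reflect_reflect hF4 hi hr] at h1

theorem HT4.all {A : Subgroup ↥(chevF4.group F)} (h : HT4 A) {r : ℕ} (hr : r < chevF4.nroots) (a : F) :
    xe hF4 r a ∈ A := by
  rcases short_tab r hr with h1 | h1 | ⟨i, hi, h1⟩ | ⟨i, hi, j, hj, h1⟩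
  · exact h.long r h1 a
  · exact h.key h1 a
  · exact HT4.step hi hr ((h.map hi).key h1 a)
  · exact HT4.step hi hr (HT4.step hj (Reach.reflect_lt hF4 hi hr) (((h.map hi).map hj).key h1 a))

end

/-- **The short root subgroups.** -/
theorem top_of_long {F : Type} [Field F] [Fintype F] [CharP F 2] (A : Subgroup ↥(chevF4.group F))
    (hlong : ∀ r ∈ OF4, ∀ a : F, xe hF4 r a ∈ A)
    (hf : ∀ s ∈ OF4, ∀ B : Subgroup ↥(chevF4.group F),
      B ≤ Subgroup.centralizer ({xe hF4 s 1} : Set ↥(chevF4.group F)) →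
      Nat.card B < Fintype.card F * Nat.card (A ⊓ B : Subgroup ↥(chevF4.group F))) : A = ⊤ := by
  have h : HT4 A := ⟨hlong, hf⟩
  rw [eq_top_iff]
  rintro x -
  have h1 : (chevF4.group F) ≤ A.map (chevF4.group F).subtype := by
    rw [group_le_iff hF4]
    intro r hr t
    exact ⟨_, h.all hr t, rfl⟩
  obtain ⟨a, ha, hax⟩ := h1 x.2
  have h2 : a = x := Subtype.ext hax
  rwa [← h2]

end Cfsg.Agent.H318.IF
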